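import Mathlib.GroupTheory.IndexNormal
import Mathlib.GroupTheory.Sylow
import Mathlib.GroupTheory.OrderOfElement

/-!
Counting centralisers and normalisers of elements of prime order, in a group and in its
automorphism group.
-/

set_option autoImplicit false

namespace CfsgLib.J4Facts21

variable {G : Type*} [Group G]

theorem zpowers_cases {s x : G} {p : ℕ} (hp : 0 < p) (hs : s ^ p = 1)
    (hx : x ∈ Subgroup.zpowers s) : ∃ j < p, x = s ^ j := by
  obtain ⟨z, rfl⟩ := Subgroup.mem_zpowers_iff.1 hx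
  have hp' : (p : ℤ) ≠ 0 := by omega
  refine ⟨(z % p).toNat, ?_, ?_⟩
  · have := Int.emod_lt_of_pos z (show (0 : ℤ) < p by omega)
    omega
  rw [← zpow_natCast, Int.toNat_of_nonneg (Int.emod_nonneg z hp')]
  conv_lhs => rw [← Int.mul_ediv_add_emod z p, zpow_add, zpow_mul, zpow_natCast, hs, one_zpow,
    one_mul]

theorem mem_normalizer_zpowers [Finite G] {s x : G} (h : x * s * x⁻¹ ∈ Subgroup.zpowers s) :
    x ∈ Subgroup.normalizer (Subgroup.zpowers s : Set G) := by
  have hsub : (Subgroup.zpowers s).map (MulAut.conj x).toMonoidHom ≤ Subgroup.zpowers s := by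
    rw [MonoidHom.map_zpowers, Subgroup.zpowers_le]
    exact h
  have heq := Subgroup.eq_of_le_of_card_ge hsub
    (le_of_eq (Subgroup.card_map_of_injective (MulAut.conj x).injective).symm)
  rw [Subgroup.mem_normalizer_iff]
  intro y
  constructor
  · intro hy
    exact heq ▸ (⟨y, hy, rfl⟩ : (MulAut.conj x) y ∈ (Subgroup.zpowers s).map (MulAut.conj x).toMonoidHom)
  · intro hy
    have hy' : x * y * x⁻¹ ∈ (Subgroup.zpowers s).map (MulAut.conj x).toMonoidHom := heq.symm ▸ hy
    obtain ⟨z, hz, ez⟩ := hy'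
    rwa [← (MulAut.conj x).injective (ez.trans rfl : MulAut.conj x z = MulAut.conj x y)]

theorem conj_mem_of_normalizer {s x : G}
    (h : x ∈ Subgroup.normalizer (Subgroup.zpowers s : Set G)) :
    x * s * x⁻¹ ∈ Subgroup.zpowers s :=
  (Subgroup.mem_normalizer_iff.1 h s).1 (Subgroup.mem_zpowers s)

/-- The normaliser of a cyclic group, from the centraliser and a list of powers realised. -/
theorem card_normalizer_zpowers [Finite G] {s : G} {d : ℕ} (f : Fin d → ℕ)
    (hinj : Function.Injective fun i => s ^ f i)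
    (hex : ∀ i, ∃ g : G, g * s * g⁻¹ = s ^ f i)
    (hall : ∀ x : G, x * s * x⁻¹ ∈ Subgroup.zpowers s → ∃ i, x * s * x⁻¹ = s ^ f i) :
    Nat.card (Subgroup.normalizer (Subgroup.zpowers s : Set G)) =
      d * Nat.card (Subgroup.centralizer ({s} : Set G)) := by
  set N := Subgroup.normalizer (Subgroup.zpowers s : Set G) with hN
  set C := Subgroup.centralizer ({s} : Set G) with hC
  choose g hg using hex
  let q : Fin d × C → N := fun a => ⟨g a.1 * a.2.1, mem_normalizer_zpowers (by
    have e : a.2.1 * s * a.2.1⁻¹ = s :=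
      mul_inv_eq_iff_eq_mul.2 (Subgroup.mem_centralizer_singleton_iff.1 a.2.2)
    rw [show g a.1 * a.2.1 * s * (g a.1 * a.2.1)⁻¹ =
      g a.1 * (a.2.1 * s * a.2.1⁻¹) * (g a.1)⁻¹ by group, e, hg]
    exact Subgroup.pow_mem _ (Subgroup.mem_zpowers s) _)⟩
  have hq : ∀ a, (q a).1 * s * (q a).1⁻¹ = s ^ f a.1 := fun a => by
    have e : a.2.1 * s * a.2.1⁻¹ = s :=
      mul_inv_eq_iff_eq_mul.2 (Subgroup.mem_centralizer_singleton_iff.1 a.2.2)
    show g a.1 * a.2.1 * s * (g a.1 * a.2.1)⁻¹ = _
    rw [show g a.1 * a.2.1 * s * (g a.1 * a.2.1)⁻¹ =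
      g a.1 * (a.2.1 * s * a.2.1⁻¹) * (g a.1)⁻¹ by group, e, hg]
  have hbij : Function.Bijective q := by
    constructor
    · rintro ⟨i, c⟩ ⟨j, c'⟩ h
      have e : i = j := hinj (by
        show s ^ f i = s ^ f j
        rw [← hq (i, c), ← hq (j, c'), h])
      subst e
      exact Prod.ext rfl (Subtype.ext (mul_left_cancel (congrArg Subtype.val h)))
    · rintro ⟨x, hx⟩
      obtain ⟨i, hi⟩ := hall x (conj_mem_of_normalizer hx)
      refine ⟨(i, ⟨(g i)⁻¹ * x, ?_⟩), Subtype.ext (mul_inv_cancel_left _ _)⟩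
      rw [Subgroup.mem_centralizer_singleton_iff, ← mul_inv_eq_iff_eq_mul,
        show (g i)⁻¹ * x * s * ((g i)⁻¹ * x)⁻¹ = (g i)⁻¹ * (x * s * x⁻¹) * g i by group, hi, ← hg i]
      group
  rw [← Nat.card_congr (Equiv.ofBijective q hbij), Nat.card_prod, Nat.card_fin]

theorem card_centralizer_of_forall [Finite G] {s : G}
    (h : ∀ x : G, Commute x s → x ∈ Subgroup.zpowers s) :
    Nat.card (Subgroup.centralizer ({s} : Set G)) = orderOf s := by
  have e : Subgroup.centralizer ({s} : Set G) = Subgroup.zpowers s := by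
    refine le_antisymm (fun x hx => h x (Subgroup.mem_centralizer_singleton_iff.1 hx)) ?_
    rw [Subgroup.zpowers_le, Subgroup.mem_centralizer_singleton_iff]
  rw [e, Nat.card_zpowers]

theorem conj_injective_of_center (hz : Subgroup.center G = ⊥) :
    Function.Injective (MulAut.conj : G →* MulAut G) := by
  rw [injective_iff_map_eq_one]
  intro a ha
  rw [← Subgroup.mem_bot, ← hz, Subgroup.mem_center_iff]
  intro b
  have := congrArg (fun φ : MulAut G => φ b) ha
  simp only [MulAut.conj_apply, MulAut.one_apply] at this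
  exact (mul_inv_eq_iff_eq_mul.1 this).symm

theorem conj_conj (φ : MulAut G) (a : G) : φ * MulAut.conj a * φ⁻¹ = MulAut.conj (φ a) := by
  ext y
  simp [MulAut.mul_apply, MulAut.inv_def]

/-- Automorphisms commuting with an inner one, when an outer one fixes the element. -/
theorem card_centralizer_aut [Finite G] (hz : Subgroup.center G = ⊥)
    (hidx : (MulAut.conj : G →* MulAut G).range.index = 2) {s : G} {τ : MulAut G}
    (hτ : τ ∉ (MulAut.conj : G →* MulAut G).range) (hτs : τ s = s) :
    Nat.card (Subgroup.centralizer ({MulAut.conj s} : Set (MulAut G))) =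
      2 * Nat.card (Subgroup.centralizer ({s} : Set G)) := by
  have hi := conj_injective_of_center hz
  set C := Subgroup.centralizer ({MulAut.conj s} : Set (MulAut G)) with hC
  set I := (MulAut.conj : G →* MulAut G).range with hI
  haveI : I.Normal := Subgroup.normal_of_index_eq_two hidx
  have hmem : ∀ φ : MulAut G, φ ∈ C ↔ φ s = s := fun φ => by
    rw [hC, Subgroup.mem_centralizer_singleton_iff, ← mul_inv_eq_iff_eq_mul, conj_conj, hi.eq_iff]
  have hrel : I.relIndex C = 2 := by
    have hdvd : I.relIndex C ∣ 2 := hidx ▸ Subgroup.relIndex_dvd_index_of_normal I C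
    rcases (Nat.dvd_prime Nat.prime_two).1 hdvd with h | h
    · exact absurd (Subgroup.relIndex_eq_one.1 h ((hmem τ).2 hτs)) hτ
    · exact h
  have hin : (I ⊓ C) = (Subgroup.centralizer ({s} : Set G)).map (MulAut.conj : G →* MulAut G) := by
    ext φ
    constructor
    · rintro ⟨⟨a, rfl⟩, hc⟩
      refine ⟨a, Subgroup.mem_centralizer_singleton_iff.2 ?_, rfl⟩
      have := (hmem _).1 hc
      rw [MulAut.conj_apply] at this
      exact mul_inv_eq_iff_eq_mul.1 this
    · rintro ⟨a, ha, rfl⟩
      refine ⟨⟨a, rfl⟩, (hmem _).2 ?_⟩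
      rw [MulAut.conj_apply]
      exact mul_inv_eq_iff_eq_mul.2 (Subgroup.mem_centralizer_singleton_iff.1 ha)
  have h := Subgroup.relIndex_mul_relIndex ⊥ (I ⊓ C) C bot_le inf_le_right
  rw [Subgroup.relIndex_bot_left, Subgroup.relIndex_bot_left, Subgroup.inf_relIndex_right, hrel,
    hin, Subgroup.card_map_of_injective hi] at h
  rw [← h, mul_comm]

theorem aut_pow_conj (s : G) (k : ℕ) : (MulAut.conj s) ^ k = MulAut.conj (s ^ k) :=
  (map_pow _ _ _).symm

/-- The normaliser in the automorphisms of the group generated by an inner one. -/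
theorem card_normalizer_aut [Finite G] (hz : Subgroup.center G = ⊥)
    (hidx : (MulAut.conj : G →* MulAut G).range.index = 2) {s : G} {τ : MulAut G}
    (hτ : τ ∉ (MulAut.conj : G →* MulAut G).range) (hτs : τ s = s) {d : ℕ} (f : Fin d → ℕ)
    (hinj : Function.Injective fun i => s ^ f i)
    (hex : ∀ i, ∃ g : G, g * s * g⁻¹ = s ^ f i)
    (hall : ∀ x : G, x * s * x⁻¹ ∈ Subgroup.zpowers s → ∃ i, x * s * x⁻¹ = s ^ f i) :
    Nat.card (Subgroup.normalizer (Subgroup.zpowers (MulAut.conj s) : Set (MulAut G))) =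
      2 * (d * Nat.card (Subgroup.centralizer ({s} : Set G))) := by
  have hi := conj_injective_of_center hz
  rw [card_normalizer_zpowers f, card_centralizer_aut hz hidx hτ hτs, mul_left_comm]
  · intro i j h
    simp only [aut_pow_conj] at h
    exact hinj (hi h)
  · intro i
    obtain ⟨g, hg⟩ := hex i
    exact ⟨MulAut.conj g, by rw [conj_conj, aut_pow_conj, MulAut.conj_apply, hg]⟩
  · intro φ hφ
    rw [conj_conj] at hφ ⊢
    obtain ⟨k, hk⟩ := Subgroup.mem_zpowers_iff.1 hφ
    rw [← map_zpow] at hk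
    have hmem : φ s ∈ Subgroup.zpowers s := hi hk ▸ Subgroup.zpow_mem_zpowers s k
    have hcases : ∃ a : G, φ s = a * s * a⁻¹ := by
      by_cases hin : φ ∈ (MulAut.conj : G →* MulAut G).range
      · obtain ⟨a, rfl⟩ := hin
        exact ⟨a, rfl⟩
      · obtain ⟨a, ha⟩ : φ * τ⁻¹ ∈ (MulAut.conj : G →* MulAut G).range := by
          rw [Subgroup.mul_mem_iff_of_index_two hidx]
          exact iff_of_false hin fun h => hτ (inv_mem_iff.1 h)
        refine ⟨a, ?_⟩
        have e : φ = MulAut.conj a * τ := by rw [ha, inv_mul_cancel_right]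
        rw [e, MulAut.mul_apply, hτs, MulAut.conj_apply]
    obtain ⟨a, ha⟩ := hcases
    obtain ⟨i, hi'⟩ := hall a (ha ▸ hmem)
    exact ⟨i, by rw [ha, hi', aut_pow_conj]⟩

end CfsgLib.J4Facts21
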