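import Cfsg.Agent.M24Orbits.SevenFix
import Cfsg.Agent.J4Facts21.Data

/-!
Elements of `M24` commuting with the standard elements of order five and seven, and elements of
order fifteen and twenty-one.
-/

set_option autoImplicit false
set_option maxRecDepth 100000

open scoped Pointwise

namespace CfsgLib.J4Facts21

open Cfsg CfsgLib.Golay CfsgLib.Mathieu Data

/-- The tables commute. -/
def commTab (s t : List ℕ) : Bool := compTab t s == compTab s t

/-- Candidates for the elements commuting with the standard element of order five. -/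
def fiveCands : List (List ℕ) :=
  (fiveMoves.flatMap fun h => fixList5.map (compTab h)).filter (commTab fiveRep)

theorem fiveRep_facts : M24Orbits.autoOK fiveRep = true ∧ powTab fiveRep 5 = idTab ∧
    fiveRep ≠ idTab ∧ (∀ i < 5, app (powTab fiveRep i) 0 = i) ∧
    app fiveRep 5 = 5 ∧ app fiveRep 7 = 7 := by
  decide +kernel

theorem fiveMoves_facts :
    fiveMoves.all (fun h => M24Orbits.autoOK h && commTab fiveRep h) = true ∧
    (List.range 24).all (fun a => app fiveRep a == a || fiveMoves.any fun h => app h 0 == a) =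
      true := by
  decide +kernel

/-- Fixing the two points leaves the powers only. -/
theorem fiveCands_fix : ((fiveCands.filter fun t => app t 5 == 5 && app t 7 == 7).all fun t =>
    (List.range 5).any fun i => t == powTab fiveRep i) = true := by
  decide +kernel

theorem five_aux : M24Orbits.autoOK fiveFour = true ∧
    compTab fiveFour fiveRep = compTab (powTab fiveRep 2) fiveFour ∧
    app fiveFour 5 = 5 ∧ app fiveFour 7 = 7 ∧ powTab fiveFour 4 = idTab ∧
    powTab fiveFour 2 ≠ idTab ∧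
    M24Orbits.autoOK fiveSwap = true ∧ commTab fiveRep fiveSwap = true ∧
    app fiveSwap 5 = 7 ∧ app fiveSwap 7 = 5 ∧
    M24Orbits.autoOK fiveProbe = true ∧ app fiveProbe 5 = 5 ∧ app fiveProbe 7 = 7 ∧
    ((List.range 5).all fun i =>
      !commTab fiveProbe (compTab fiveSwap (powTab fiveRep i))) = true := by
  decide +kernel

theorem toTab_mem_fiveCands {ρ : Equiv.Perm GolayPt} (hρ : toTab ρ = fiveRep)
    {x : Equiv.Perm GolayPt} (hx : x ∈ Cfsg.M24) (hc : Commute x ρ) :
    toTab x ∈ fiveCands := by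
  obtain ⟨-, -, -, hbase, -, -⟩ := fiveRep_facts
  obtain ⟨hmoves, hcov⟩ := fiveMoves_facts
  simp only [List.all_eq_true, Bool.and_eq_true, Bool.or_eq_true, List.any_eq_true, beq_iff_eq,
    List.mem_range] at hmoves hcov
  have hρi : ∀ i < 5, (ρ ^ i) (i2p 0) = i2p i := fun i hi => by
    apply p2i_injective
    rw [p2i_i2p i (by omega), ← app_toTab (ρ ^ i) 0 (by norm_num), toTab_pow, hρ]
    exact hbase i hi
  rcases hcov (p2i (x (i2p 0))) (p2i_lt _) with h | ⟨h, hh, hh0⟩
  · exfalso
    rw [← hρ, app_toTab'] at h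
    have e1 : ρ (x (i2p 0)) = x (i2p 0) := p2i_injective h
    have e2 : x (ρ (i2p 0)) = x (i2p 0) := by
      rw [← Equiv.Perm.mul_apply, hc.eq, Equiv.Perm.mul_apply, e1]
    have e3 := congrArg p2i (x.injective e2)
    rw [← pow_one ρ, hρi 1 (by norm_num), p2i_i2p 1 (by norm_num), p2i_i2p 0 (by norm_num)] at e3
    exact absurd e3 one_ne_zero
  obtain ⟨k, hk, hkt⟩ := M24Orbits.rep_of_autoOK (hmoves h hh).1
  have hkc : Commute k ρ := CfsgLib.Mathieu.toTab_injective (by
    rw [toTab_mul, toTab_mul, hkt, hρ]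
    exact beq_iff_eq.1 (hmoves h hh).2)
  have hkx0 : k (i2p 0) = x (i2p 0) := p2i_injective (by
    rw [← app_toTab k 0 (by norm_num), hkt, hh0])
  have hy : Commute (k⁻¹ * x) ρ := hkc.inv_left.mul_left hc
  have hmem : k⁻¹ * x ∈ base7Fix 5 := by
    refine mem_base7Fix.2 ⟨Cfsg.M24.mul_mem (Cfsg.M24.inv_mem hk) hx, fun b hb => ?_⟩
    have hb5 : b < 5 := by revert b; decide +kernel
    rw [← hρi b hb5, ← Equiv.Perm.mul_apply, (hy.pow_right b).eq, Equiv.Perm.mul_apply,
      Equiv.Perm.mul_apply, ← hkx0, Equiv.Perm.coe_inv, Equiv.symm_apply_apply]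
  simp only [fiveCands, List.mem_filter, List.mem_flatMap, List.mem_map]
  refine ⟨⟨h, hh, _, toTab_mem_fixList5 hmem, ?_⟩, ?_⟩
  · rw [← hkt, ← toTab_mul, mul_inv_cancel_left]
  · rw [commTab, beq_iff_eq, ← hρ, ← toTab_mul, ← toTab_mul, hc.eq]

/-- Fixing the two points, only the powers commute with the standard element of order five. -/
theorem five_pow_of_fix {ρ : Equiv.Perm GolayPt} (hρ : toTab ρ = fiveRep)
    {x : Equiv.Perm GolayPt} (hx : x ∈ Cfsg.M24) (hc : Commute x ρ)
    (h5 : x (i2p 5) = i2p 5) (h7 : x (i2p 7) = i2p 7) : x ∈ Subgroup.zpowers ρ := by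
  have h := List.all_eq_true.1 fiveCands_fix (toTab x) (by
    rw [List.mem_filter]
    refine ⟨toTab_mem_fiveCands hρ hx hc, ?_⟩
    rw [Bool.and_eq_true, beq_iff_eq, beq_iff_eq, app_toTab x 5 (by norm_num), h5,
      app_toTab x 7 (by norm_num), h7, p2i_i2p 5 (by norm_num), p2i_i2p 7 (by norm_num)]
    exact ⟨rfl, rfl⟩)
  simp only [List.any_eq_true, beq_iff_eq] at h
  obtain ⟨i, -, e⟩ := h
  rw [← hρ, ← toTab_pow] at e
  rw [CfsgLib.Mathieu.toTab_injective e]
  exact Subgroup.pow_mem _ (Subgroup.mem_zpowers ρ) i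

theorem sevenRep_facts : M24Orbits.autoOK M24Orbits.Data.sevenRep = true ∧
    powTab M24Orbits.Data.sevenRep 7 = idTab ∧ M24Orbits.Data.sevenRep ≠ idTab ∧
    app M24Orbits.Data.sevenRep 5 = 5 ∧ app M24Orbits.Data.sevenRep 9 = 9 := by
  decide +kernel

/-- The normaliser of the standard group of order seven in the list. -/
theorem sevenNorm_pow :
    (M24Orbits.Data.sevenNorm.all fun t =>
      [1, 2, 4].any fun j =>
        compTab t M24Orbits.Data.sevenRep ==
          compTab (powTab M24Orbits.Data.sevenRep j) t) = true ∧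
    ((M24Orbits.Data.sevenNorm.filter fun t =>
        app t 5 == 5 && app t 9 == 9 && commTab M24Orbits.Data.sevenRep t).all fun t =>
      (List.range 7).any fun i => t == powTab M24Orbits.Data.sevenRep i) = true := by
  decide +kernel

theorem seven_aux : M24Orbits.autoOK sevenThree = true ∧
    compTab sevenThree M24Orbits.Data.sevenRep =
      compTab (powTab M24Orbits.Data.sevenRep 2) sevenThree ∧
    app sevenThree 5 = 5 ∧ app sevenThree 9 = 9 ∧ powTab sevenThree 3 = idTab ∧
    sevenThree ≠ idTab ∧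
    M24Orbits.autoOK sevenSwap = true ∧ commTab M24Orbits.Data.sevenRep sevenSwap = true ∧
    app sevenSwap 5 = 9 ∧ app sevenSwap 9 = 5 ∧
    M24Orbits.autoOK sevenProbe = true ∧ app sevenProbe 5 = 5 ∧ app sevenProbe 9 = 9 ∧
    ((List.range 7).all fun i =>
      !commTab sevenProbe (compTab sevenSwap (powTab M24Orbits.Data.sevenRep i))) = true := by
  decide +kernel

/-- A normalising element raises the standard element of order seven to the first, second or
fourth power. -/
theorem seven_norm_cases {ρ : Equiv.Perm GolayPt} (hρ : toTab ρ = M24Orbits.Data.sevenRep)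
    (hρM : ρ ∈ Cfsg.M24) {x : Equiv.Perm GolayPt} (hx : x ∈ Cfsg.M24) {j : ℕ}
    (hj : x * ρ = ρ ^ j * x) : ∃ k ∈ [1, 2, 4], x * ρ = ρ ^ k * x := by
  have hmem := M24Orbits.toTab_mem_sevenNorm (ρ := ⟨ρ, hρM⟩) hρ (x := ⟨x, hx⟩)
    ⟨j, Subtype.ext hj⟩
  have h := List.all_eq_true.1 sevenNorm_pow.1 _ hmem
  simp only [List.any_eq_true, beq_iff_eq] at h
  obtain ⟨k, hk, e⟩ := h
  refine ⟨k, hk, CfsgLib.Mathieu.toTab_injective ?_⟩
  rw [toTab_mul, toTab_mul, toTab_pow, hρ]
  exact e

/-- Fixing the two points, only the powers commute with the standard element of order seven. -/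
theorem seven_pow_of_fix {ρ : Equiv.Perm GolayPt} (hρ : toTab ρ = M24Orbits.Data.sevenRep)
    (hρM : ρ ∈ Cfsg.M24) {x : Equiv.Perm GolayPt} (hx : x ∈ Cfsg.M24) (hc : Commute x ρ)
    (h5 : x (i2p 5) = i2p 5) (h9 : x (i2p 9) = i2p 9) : x ∈ Subgroup.zpowers ρ := by
  have hmem := M24Orbits.toTab_mem_sevenNorm (ρ := ⟨ρ, hρM⟩) hρ (x := ⟨x, hx⟩)
    ⟨1, Subtype.ext (by simpa using hc.eq)⟩
  have h := List.all_eq_true.1 sevenNorm_pow.2 _ (by
    rw [List.mem_filter]
    refine ⟨hmem, ?_⟩
    rw [Bool.and_eq_true, Bool.and_eq_true, beq_iff_eq, beq_iff_eq, app_toTab x 5 (by norm_num),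
      h5, app_toTab x 9 (by norm_num), h9, p2i_i2p 5 (by norm_num), p2i_i2p 9 (by norm_num)]
    refine ⟨⟨rfl, rfl⟩, ?_⟩
    rw [commTab, beq_iff_eq, ← hρ, ← toTab_mul, ← toTab_mul, hc.eq])
  simp only [List.any_eq_true, beq_iff_eq] at h
  obtain ⟨i, -, e⟩ := h
  rw [← hρ, ← toTab_pow] at e
  rw [CfsgLib.Mathieu.toTab_injective e]
  exact Subgroup.pow_mem _ (Subgroup.mem_zpowers ρ) i

theorem exists_order_of_tab {t : List ℕ} {n : ℕ} (hn : 0 < n)
    (hok : M24Orbits.autoOK t = true) (hpow : powTab t n = idTab)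
    (hlow : ((List.range n).all fun m => m == 0 || powTab t m != idTab) = true) :
    ∃ g : Cfsg.M24, orderOf g = n := by
  obtain ⟨g, hg, rfl⟩ := M24Orbits.rep_of_autoOK hok
  refine ⟨⟨g, hg⟩, ?_⟩
  rw [← Subgroup.orderOf_coe]
  refine (orderOf_eq_iff hn).2 ⟨CfsgLib.Mathieu.toTab_injective ?_, fun m hm hm0 e => ?_⟩
  · rw [toTab_pow, toTab_one, hpow]
  · simp only [List.all_eq_true, List.mem_range, Bool.or_eq_true, beq_iff_eq, bne_iff_ne,
      ne_eq] at hlow
    rcases hlow m hm with h | h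
    · omega
    · exact h (by rw [← toTab_pow, e, toTab_one])

theorem m24_order_fifteen : ∃ g : Cfsg.M24, orderOf g = 15 :=
  exists_order_of_tab (by norm_num) (t := fifteen) (by decide +kernel) (by decide +kernel)
    (by decide +kernel)

theorem m24_order_twentyone : ∃ g : Cfsg.M24, orderOf g = 21 :=
  exists_order_of_tab (by norm_num) (t := twentyOne) (by decide +kernel) (by decide +kernel)
    (by decide +kernel)

end CfsgLib.J4Facts21
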