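import Cfsg.Agent.J4Facts21.Basic
import Cfsg.Agent.J4Facts21.M24
import Cfsg.Agent.Mathieu.OutLarge
import Cfsg.Agent.Mathieu.Simple
import Cfsg.Prelude.Def_Spor_Mathieu

/-!
Centralisers and normalisers of the elements of order five and seven in `M22` and in its
automorphism group.
-/

set_option autoImplicit false

open scoped Pointwise

namespace CfsgLib.J4Facts21

open Cfsg CfsgLib.Golay CfsgLib.Mathieu Data

theorem mem_M22 {x : Equiv.Perm GolayPt} :
    x ∈ Spor.M22 ↔ x ∈ Cfsg.M24 ∧ x none = none ∧ x (some 0) = some 0 := by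
  simp only [Spor.M22, Spor.M23, Subgroup.mem_inf, MulAction.mem_stabilizer_iff,
    Equiv.Perm.smul_def, and_assoc]

theorem center_M22 : Subgroup.center Spor.M22 = ⊥ := by
  haveI := CfsgLib.Mathieu.isSimpleGroup_M22
  rcases IsSimpleGroup.eq_bot_or_eq_top_of_normal _
    (inferInstance : (Subgroup.center Spor.M22).Normal) with h | h
  · exact h
  exfalso
  let _ : CommGroup Spor.M22 := { (inferInstance : Group Spor.M22) with
    mul_comm := fun x y => (Subgroup.mem_center_iff.1 (h ▸ Subgroup.mem_top y) x) }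
  have hp := IsSimpleGroup.prime_card (α := Spor.M22)
  rw [CfsgLib.Mathieu.card_M22] at hp
  norm_num at hp

theorem inn_index_M22 : (MulAut.conj : Spor.M22 →* MulAut Spor.M22).range.index = 2 :=
  CfsgLib.Mathieu.card_out_M22

/-- What is needed about an element of prime order. -/
structure Local (p r d : ℕ) (f : Fin d → ℕ) (n : ℕ) (s : Spor.M22) : Prop where
  cent : ∀ x : Spor.M22, Commute x s → x ∈ Subgroup.zpowers s
  step : ∃ g : Spor.M22, orderOf g = n ∧ g * s * g⁻¹ = s ^ r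
  outer : ∃ τ : MulAut Spor.M22, τ ∉ (MulAut.conj : Spor.M22 →* MulAut Spor.M22).range ∧ τ s = s
  norm : ∀ x : Spor.M22, x * s * x⁻¹ ∈ Subgroup.zpowers s → ∃ i, x * s * x⁻¹ = s ^ f i

/-- The local facts from permutations of `M24` fixing two points. -/
theorem exists_local {p r d n : ℕ} {f : Fin d → ℕ} (hp : p.Prime) {ρ u w e : Equiv.Perm GolayPt}
    (hρ : ρ ∈ Cfsg.M24) (hρp : ρ ^ p = 1) (hρ1 : ρ ≠ 1) {a b : GolayPt} (hab : a ≠ b)
    (hρa : ρ a = a) (hρb : ρ b = b)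
    (hfix : ∀ x ∈ Cfsg.M24, Commute x ρ → x a = a → x b = b → x ∈ Subgroup.zpowers ρ)
    (hu : u ∈ Cfsg.M24) (hua : u a = a) (hub : u b = b) (hur : u * ρ = ρ ^ r * u)
    (hun : orderOf u = n)
    (hw : w ∈ Cfsg.M24) (hwa : w a = b) (hwb : w b = a) (hwρ : Commute w ρ)
    (he : e ∈ Cfsg.M24) (hea : e a = a) (heb : e b = b)
    (hprobe : ∀ i < p, ¬ Commute e (w * ρ ^ i))
    (hnorm : ∀ x ∈ Cfsg.M24, ∀ j < p, x * ρ = ρ ^ j * x → ∃ i, ρ ^ j = ρ ^ f i) :
    ∃ s : Spor.M22, orderOf s = p ∧ Local p r d f n s := by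
  haveI : Fact p.Prime := ⟨hp⟩
  obtain ⟨k, hk, hka, hkb⟩ := exists_map_two hab (show (none : GolayPt) ≠ some 0 by simp)
  have hka' : k⁻¹ none = a := by rw [Equiv.Perm.inv_eq_iff_eq, hka]
  have hkb' : k⁻¹ (some 0) = b := by rw [Equiv.Perm.inv_eq_iff_eq, hkb]
  have hin : ∀ y ∈ Cfsg.M24, y a = a → y b = b → k * y * k⁻¹ ∈ Spor.M22 := fun y hy ha hb =>
    mem_M22.2 ⟨Cfsg.M24.mul_mem (Cfsg.M24.mul_mem hk hy) (Cfsg.M24.inv_mem hk),
      by simp only [Equiv.Perm.mul_apply, hka', ha, hka],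
      by simp only [Equiv.Perm.mul_apply, hkb', hb, hkb]⟩
  have hout : ∀ x : Spor.M22, k⁻¹ * x * k ∈ Cfsg.M24 ∧
      (k⁻¹ * (x : Equiv.Perm GolayPt) * k) a = a ∧ (k⁻¹ * (x : Equiv.Perm GolayPt) * k) b = b := by
    intro x
    obtain ⟨hxM, hxn, hx0⟩ := mem_M22.1 x.2
    exact ⟨Cfsg.M24.mul_mem (Cfsg.M24.mul_mem (Cfsg.M24.inv_mem hk) hxM) hk,
      by simp only [Equiv.Perm.mul_apply, hka, hxn, hka'],
      by simp only [Equiv.Perm.mul_apply, hkb, hx0, hkb']⟩
  let s : Spor.M22 := ⟨k * ρ * k⁻¹, hin ρ hρ hρa hρb⟩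
  have hpow : ∀ m : ℕ, ((s ^ m : Spor.M22) : Equiv.Perm GolayPt) = k * ρ ^ m * k⁻¹ := fun m => by
    rw [Subgroup.coe_pow]; exact conj_pow
  have hord : orderOf s = p := by
    refine orderOf_eq_prime (Subtype.ext ?_) fun h => hρ1 ?_
    · rw [hpow, hρp]; simp
    · have := congrArg Subtype.val h
      exact conj_eq_one_iff.1 this
  have hzp : ∀ x : Spor.M22, k⁻¹ * (x : Equiv.Perm GolayPt) * k ∈ Subgroup.zpowers ρ →
      x ∈ Subgroup.zpowers s := by
    intro x hx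
    obtain ⟨m, -, hm⟩ := zpowers_cases hp.pos hρp hx
    have : x = s ^ m := Subtype.ext (by rw [hpow, ← hm]; group)
    rw [this]
    exact Subgroup.pow_mem _ (Subgroup.mem_zpowers s) m
  refine ⟨s, hord, ⟨fun x hx => hzp x ?_, ⟨⟨k * u * k⁻¹, hin u hu hua hub⟩, ?_, ?_⟩, ?_, ?_⟩⟩
  · obtain ⟨h1, h2, h3⟩ := hout x
    refine hfix _ h1 ?_ h2 h3
    have e' : (x : Equiv.Perm GolayPt) * (k * ρ * k⁻¹) = k * ρ * k⁻¹ * x :=
      congrArg Subtype.val hx.eq
    show k⁻¹ * x * k * ρ = ρ * (k⁻¹ * x * k)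
    calc k⁻¹ * x * k * ρ = k⁻¹ * ((x : Equiv.Perm GolayPt) * (k * ρ * k⁻¹)) * k := by group
      _ = ρ * (k⁻¹ * x * k) := by rw [e']; group
  · rw [← Subgroup.orderOf_coe, ← hun]
    exact (orderOf_injective (MulAut.conj k).toMonoidHom (MulAut.conj k).injective u)
  · refine Subtype.ext ?_
    rw [hpow, Subgroup.coe_mul, Subgroup.coe_mul, Subgroup.coe_inv]
    show k * u * k⁻¹ * (k * ρ * k⁻¹) * (k * u * k⁻¹)⁻¹ = _
    calc k * u * k⁻¹ * (k * ρ * k⁻¹) * (k * u * k⁻¹)⁻¹ = k * (u * ρ) * u⁻¹ * k⁻¹ := by group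
      _ = k * ρ ^ r * k⁻¹ := by rw [hur]; group
  · let σ := k * w * k⁻¹
    have hσ1 : σ none = some 0 := by simp only [σ, Equiv.Perm.mul_apply, hka', hwa, hkb]
    have hσ0 : σ (some 0) = none := by simp only [σ, Equiv.Perm.mul_apply, hkb', hwb, hka]
    have hσM : σ ∈ Cfsg.M24 := Cfsg.M24.mul_mem (Cfsg.M24.mul_mem hk hw) (Cfsg.M24.inv_mem hk)
    have hσn : ∀ x, x ∈ Spor.M22 ↔ σ * x * σ⁻¹ ∈ Spor.M22 := by
      intro x
      have i1 : σ⁻¹ none = some 0 := by rw [Equiv.Perm.inv_eq_iff_eq, hσ0]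
      have i0 : σ⁻¹ (some 0) = none := by rw [Equiv.Perm.inv_eq_iff_eq, hσ1]
      rw [mem_M22, mem_M22, conj_mem_M24_iff hσM]
      simp only [Equiv.Perm.mul_apply, i1, i0]
      constructor
      · rintro ⟨h1, h2, h3⟩
        exact ⟨h1, by rw [h3, hσ0], by rw [h2, hσ1]⟩
      · rintro ⟨h1, h2, h3⟩
        exact ⟨h1, σ.injective (h3.trans hσ1.symm), σ.injective (h2.trans hσ0.symm)⟩
    refine ⟨conjAutOf σ hσn, ?_, Subtype.ext ?_⟩
    · rintro ⟨h, hh⟩
      have key : ∀ x : Spor.M22,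
          Commute (((h : Spor.M22) : Equiv.Perm GolayPt)⁻¹ * σ) (x : Equiv.Perm GolayPt) := by
        intro x
        have e' : (h : Equiv.Perm GolayPt) * x * (h : Equiv.Perm GolayPt)⁻¹ = σ * x * σ⁻¹ :=
          congrArg (fun F : MulAut Spor.M22 => (F x : Equiv.Perm GolayPt)) hh
        calc (h : Equiv.Perm GolayPt)⁻¹ * σ * x
            = (h : Equiv.Perm GolayPt)⁻¹ * (σ * x * σ⁻¹) * σ := by group
          _ = x * ((h : Equiv.Perm GolayPt)⁻¹ * σ) := by rw [← e']; group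
      have hs : Commute h s := by
        have h1 := key s
        have h2 : Commute σ (k * ρ * k⁻¹) := hwρ.conj k
        have h3 : Commute ((σ * ((h : Equiv.Perm GolayPt)⁻¹ * σ)⁻¹)) (k * ρ * k⁻¹) :=
          h2.mul_left h1.inv_left
        rw [mul_inv_rev, inv_inv, mul_inv_cancel_left] at h3
        exact Subtype.ext h3.eq
      obtain ⟨h1, h2, h3⟩ := hout h
      have hz := hfix _ h1 (by
        have e' : (h : Equiv.Perm GolayPt) * (k * ρ * k⁻¹) = k * ρ * k⁻¹ * h :=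
          congrArg Subtype.val hs.eq
        show k⁻¹ * h * k * ρ = ρ * (k⁻¹ * h * k)
        calc k⁻¹ * h * k * ρ = k⁻¹ * ((h : Equiv.Perm GolayPt) * (k * ρ * k⁻¹)) * k := by group
          _ = ρ * (k⁻¹ * h * k) := by rw [e']; group) h2 h3
      obtain ⟨i, hi, hi'⟩ := zpowers_cases hp.pos hρp (Subgroup.inv_mem _ hz)
      apply hprobe i hi
      have h4 := key ⟨k * e * k⁻¹, hin e he hea heb⟩
      have h5 : w * ρ ^ i = k⁻¹ * ((h : Equiv.Perm GolayPt)⁻¹ * σ) * k := by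
        rw [(hwρ.pow_right i).eq, ← hi']
        simp only [σ]; group
      rw [h5]
      have h6 := (h4.conj k⁻¹).symm
      simp only [inv_inv] at h6
      rw [show k⁻¹ * (k * e * k⁻¹) * k = e by group] at h6
      exact h6
    · rw [conjAutOf_apply]
      show k * w * k⁻¹ * (k * ρ * k⁻¹) * (k * w * k⁻¹)⁻¹ = k * ρ * k⁻¹
      calc k * w * k⁻¹ * (k * ρ * k⁻¹) * (k * w * k⁻¹)⁻¹ = k * (w * ρ) * w⁻¹ * k⁻¹ := by group
        _ = k * ρ * k⁻¹ := by rw [hwρ.eq]; group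
  · intro x hx
    obtain ⟨j, hj, hje⟩ := zpowers_cases hp.pos (hord ▸ pow_orderOf_eq_one s) hx
    have e' : (x : Equiv.Perm GolayPt) * (k * ρ * k⁻¹) * (x : Equiv.Perm GolayPt)⁻¹ =
        k * ρ ^ j * k⁻¹ := by
      rw [← hpow, ← hje]; rfl
    obtain ⟨i, hi⟩ := hnorm (k⁻¹ * x * k) (hout x).1 j hj (by
      calc k⁻¹ * x * k * ρ
          = k⁻¹ * ((x : Equiv.Perm GolayPt) * (k * ρ * k⁻¹) * (x : Equiv.Perm GolayPt)⁻¹) *
              x * k := by group
        _ = ρ ^ j * (k⁻¹ * x * k) := by rw [e']; group)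
    exact ⟨i, by rw [hje]; exact Subtype.ext (by rw [hpow, hpow, hi])⟩

theorem five_exists : ∃ s : Spor.M22, orderOf s = 5 ∧ Local 5 2 4 ![1, 2, 3, 4] 4 s := by
  obtain ⟨hrep, h5, hne, -, ha, hb⟩ := fiveRep_facts
  obtain ⟨hu, hur, hua, hub, hu4, hu2, hw, hwc, hwa, hwb, he, hea, heb, hprobe⟩ := five_aux
  obtain ⟨ρ, hρ, hρt⟩ := M24Orbits.rep_of_autoOK hrep
  obtain ⟨u, hu, hut⟩ := M24Orbits.rep_of_autoOK hu
  obtain ⟨w, hw, hwt⟩ := M24Orbits.rep_of_autoOK hw
  obtain ⟨e, he, het⟩ := M24Orbits.rep_of_autoOK he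
  have happ : ∀ (g : Equiv.Perm GolayPt) (t : List ℕ) (i j : ℕ), toTab g = t → i < 24 →
      app t i = j → g (i2p i) = i2p j := fun g t i j hg hi h => by
    rw [← hg, app_toTab g i hi] at h
    rw [← h, i2p_p2i]
  refine exists_local (by norm_num) hρ ?_ ?_ (a := i2p 5) (b := i2p 7) ?_
    (happ _ _ 5 5 hρt (by norm_num) ha) (happ _ _ 7 7 hρt (by norm_num) hb)
    (fun x hx hc => five_pow_of_fix hρt hx hc) hu
    (happ _ _ 5 5 hut (by norm_num) hua) (happ _ _ 7 7 hut (by norm_num) hub) ?_ ?_ hw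
    (happ _ _ 5 7 hwt (by norm_num) hwa) (happ _ _ 7 5 hwt (by norm_num) hwb) ?_ he
    (happ _ _ 5 5 het (by norm_num) hea) (happ _ _ 7 7 het (by norm_num) heb) ?_ ?_
  · exact toTab_injective (by rw [toTab_pow, hρt, h5, toTab_one])
  · exact fun h => hne (by rw [← hρt, h, toTab_one])
  · intro h
    have := congrArg p2i h
    rw [p2i_i2p 5 (by norm_num), p2i_i2p 7 (by norm_num)] at this
    norm_num at this
  · exact toTab_injective (by rw [toTab_mul, toTab_mul, toTab_pow, hρt, hut]; exact hur)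
  · rw [show (4 : ℕ) = 2 ^ (1 + 1) from rfl]
    haveI : Fact (Nat.Prime 2) := ⟨Nat.prime_two⟩
    refine orderOf_eq_prime_pow (fun h => hu2 ?_) (toTab_injective ?_)
    · rw [← hut, ← toTab_pow, show (2 : ℕ) = 2 ^ 1 from rfl, h, toTab_one]
    · rw [toTab_pow, hut, toTab_one]; exact hu4
  · exact toTab_injective (by rw [toTab_mul, toTab_mul, hρt, hwt]; exact beq_iff_eq.1 hwc)
  · intro i hi hcomm
    have h := List.all_eq_true.1 hprobe i (List.mem_range.2 hi)
    rw [Bool.not_eq_true', ← Bool.not_eq_true, commTab, beq_iff_eq] at h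
    apply h
    rw [← hwt, ← het, ← hρt, ← toTab_pow, ← toTab_mul, ← toTab_mul, ← toTab_mul, hcomm.eq]
  · intro x _ j hj hxj
    rcases Nat.eq_zero_or_pos j with rfl | hjpos
    · exfalso
      rw [pow_zero, one_mul, mul_eq_left] at hxj
      exact hne (by rw [← hρt, hxj, toTab_one])
    · exact ⟨⟨j - 1, by omega⟩, by interval_cases j <;> rfl⟩

theorem seven_exists : ∃ s : Spor.M22, orderOf s = 7 ∧ Local 7 2 3 ![1, 2, 4] 3 s := by
  obtain ⟨hrep, h7, hne, ha, hb⟩ := sevenRep_facts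
  obtain ⟨hu, hur, hua, hub, hu3, hu1, hw, hwc, hwa, hwb, he, hea, heb, hprobe⟩ := seven_aux
  obtain ⟨ρ, hρ, hρt⟩ := M24Orbits.rep_of_autoOK hrep
  obtain ⟨u, hu, hut⟩ := M24Orbits.rep_of_autoOK hu
  obtain ⟨w, hw, hwt⟩ := M24Orbits.rep_of_autoOK hw
  obtain ⟨e, he, het⟩ := M24Orbits.rep_of_autoOK he
  have happ : ∀ (g : Equiv.Perm GolayPt) (t : List ℕ) (i j : ℕ), toTab g = t → i < 24 →
      app t i = j → g (i2p i) = i2p j := fun g t i j hg hi h => by
    rw [← hg, app_toTab g i hi] at h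
    rw [← h, i2p_p2i]
  refine exists_local (by norm_num) hρ ?_ ?_ (a := i2p 5) (b := i2p 9) ?_
    (happ _ _ 5 5 hρt (by norm_num) ha) (happ _ _ 9 9 hρt (by norm_num) hb)
    (fun x hx hc => seven_pow_of_fix hρt hρ hx hc) hu
    (happ _ _ 5 5 hut (by norm_num) hua) (happ _ _ 9 9 hut (by norm_num) hub) ?_ ?_ hw
    (happ _ _ 5 9 hwt (by norm_num) hwa) (happ _ _ 9 5 hwt (by norm_num) hwb) ?_ he
    (happ _ _ 5 5 het (by norm_num) hea) (happ _ _ 9 9 het (by norm_num) heb) ?_ ?_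
  · exact toTab_injective (by rw [toTab_pow, hρt, h7, toTab_one])
  · exact fun h => hne (by rw [← hρt, h, toTab_one])
  · intro h
    have := congrArg p2i h
    rw [p2i_i2p 5 (by norm_num), p2i_i2p 9 (by norm_num)] at this
    norm_num at this
  · exact toTab_injective (by rw [toTab_mul, toTab_mul, toTab_pow, hρt, hut]; exact hur)
  · haveI : Fact (Nat.Prime 3) := ⟨Nat.prime_three⟩
    refine orderOf_eq_prime (toTab_injective ?_) fun h => hu1 ?_
    · rw [toTab_pow, hut, toTab_one]; exact hu3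
    · rw [← hut, h, toTab_one]
  · exact toTab_injective (by rw [toTab_mul, toTab_mul, hρt, hwt]; exact beq_iff_eq.1 hwc)
  · intro i hi hcomm
    have h := List.all_eq_true.1 hprobe i (List.mem_range.2 hi)
    rw [Bool.not_eq_true', ← Bool.not_eq_true, commTab, beq_iff_eq] at h
    apply h
    rw [← hwt, ← het, ← hρt, ← toTab_pow, ← toTab_mul, ← toTab_mul, ← toTab_mul, hcomm.eq]
  · intro x hx j _ hxj
    obtain ⟨m, hm, hxm⟩ := seven_norm_cases hρt hρ hx hxj
    have e' : ρ ^ j = ρ ^ m := mul_right_cancel (hxj.symm.trans hxm)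
    simp only [List.mem_cons, List.not_mem_nil, or_false] at hm
    rcases hm with rfl | rfl | rfl
    exacts [⟨0, e'⟩, ⟨1, e'⟩, ⟨2, e'⟩]

/-- The facts pass to every element of the order. -/
theorem Local.transport {p r d n : ℕ} {f : Fin d → ℕ} (hp : p.Prime)
    (hfac : (Nat.card Spor.M22).factorization p = 1) {s₀ : Spor.M22} (h0 : orderOf s₀ = p)
    (L : Local p r d f n s₀) {s : Spor.M22} (hs : orderOf s = p) : Local p r d f n s := by
  haveI : Fact p.Prime := ⟨hp⟩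
  obtain ⟨h, hh⟩ := MulAction.exists_smul_eq Spor.M22
    (Sylow.ofCard (Subgroup.zpowers s₀) (by rw [Nat.card_zpowers, h0, hfac, pow_one]) :
      Sylow p Spor.M22)
    (Sylow.ofCard (Subgroup.zpowers s) (by rw [Nat.card_zpowers, hs, hfac, pow_one]))
  have he : (Subgroup.zpowers s₀).map (MulAut.conj h).toMonoidHom = Subgroup.zpowers s :=
    congrArg Sylow.toSubgroup hh
  obtain ⟨c, hc, hcs⟩ := Subgroup.mem_map.1
    (he.symm ▸ Subgroup.mem_zpowers s : s ∈ (Subgroup.zpowers s₀).map (MulAut.conj h).toMonoidHom)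
  replace hcs : h * c * h⁻¹ = s := hcs
  have hco : orderOf c = p := by
    rw [← hs, ← hcs]
    exact (orderOf_injective (MulAut.conj h).toMonoidHom (MulAut.conj h).injective c).symm
  have hgen : Subgroup.zpowers c = Subgroup.zpowers s₀ :=
    Subgroup.eq_of_le_of_card_ge (Subgroup.zpowers_le.2 hc)
      (le_of_eq (by rw [Nat.card_zpowers, Nat.card_zpowers, hco, h0]))
  obtain ⟨m, -, hm⟩ := zpowers_cases hp.pos (h0 ▸ pow_orderOf_eq_one s₀) hc
  obtain ⟨m', -, hm'⟩ := zpowers_cases hp.pos (hco ▸ pow_orderOf_eq_one c)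
    (hgen.symm ▸ Subgroup.mem_zpowers s₀ : s₀ ∈ Subgroup.zpowers c)
  have hstep : ∀ (y : Spor.M22) (i : ℕ), y * s₀ * y⁻¹ = s₀ ^ i →
      h * y * h⁻¹ * s * (h * y * h⁻¹)⁻¹ = s ^ i := by
    intro y i hy
    rw [← hcs, conj_pow,
      show h * y * h⁻¹ * (h * c * h⁻¹) * (h * y * h⁻¹)⁻¹ = h * (y * c * y⁻¹) * h⁻¹ by group,
      hm, ← conj_pow, hy, ← pow_mul, ← pow_mul, mul_comm]
  refine ⟨fun x hx => ?_, ?_, ?_, fun x hx => ?_⟩
  · have h1 : Commute (h⁻¹ * x * h) c := by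
      have := hx.conj h⁻¹
      rw [← hcs] at this
      simp only [inv_inv] at this
      rwa [show h⁻¹ * (h * c * h⁻¹) * h = c by group] at this
    have h2 := L.cent _ (hm' ▸ h1.pow_right m')
    rw [← hgen] at h2
    rw [← he]
    exact ⟨h⁻¹ * x * h, hgen ▸ h2, by
      show h * (h⁻¹ * x * h) * h⁻¹ = x
      group⟩
  · obtain ⟨g, hg, hgs⟩ := L.step
    exact ⟨h * g * h⁻¹, (orderOf_injective (MulAut.conj h).toMonoidHom
      (MulAut.conj h).injective g).trans hg, hstep g r hgs⟩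
  · obtain ⟨τ, hτ, hτs⟩ := L.outer
    refine ⟨MulAut.conj h * τ * (MulAut.conj h)⁻¹, fun hmem => hτ ?_, ?_⟩
    · have hI := (MulAut.conj : Spor.M22 →* MulAut Spor.M22).range
      have h1 : MulAut.conj h ∈ (MulAut.conj : Spor.M22 →* MulAut Spor.M22).range := ⟨h, rfl⟩
      have h2 := Subgroup.mul_mem _ (Subgroup.mul_mem _ (Subgroup.inv_mem _ h1) hmem) h1
      rwa [show (MulAut.conj h)⁻¹ * (MulAut.conj h * τ * (MulAut.conj h)⁻¹) * MulAut.conj h = τ by
        group] at h2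
    · have hτc : τ c = c := by rw [hm, map_pow, hτs]
      rw [← hcs]
      simp [MulAut.mul_apply, MulAut.inv_def, hτc, mul_assoc]
  · obtain ⟨j, -, hj⟩ := zpowers_cases hp.pos (hs ▸ pow_orderOf_eq_one s) hx
    rw [← hcs, conj_pow] at hj
    have h1 : h⁻¹ * x * h * c * (h⁻¹ * x * h)⁻¹ = c ^ j := by
      calc h⁻¹ * x * h * c * (h⁻¹ * x * h)⁻¹ = h⁻¹ * (x * (h * c * h⁻¹) * x⁻¹) * h := by group
        _ = c ^ j := by rw [hj]; group
    have h2 : h⁻¹ * x * h * s₀ * (h⁻¹ * x * h)⁻¹ = s₀ ^ j := by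
      rw [hm', ← conj_pow, h1, ← pow_mul, ← pow_mul, mul_comm]
    obtain ⟨i, hi⟩ := L.norm _ (h2 ▸ Subgroup.pow_mem _ (Subgroup.mem_zpowers s₀) j)
    refine ⟨i, ?_⟩
    have := hstep _ _ hi
    rwa [show h * (h⁻¹ * x * h) * h⁻¹ = x by group] at this

theorem local_five {s : Spor.M22} (hs : orderOf s = 5) : Local 5 2 4 ![1, 2, 3, 4] 4 s := by
  obtain ⟨s₀, h0, L⟩ := five_exists
  refine L.transport (by norm_num) ?_ h0 hs
  rw [CfsgLib.Mathieu.card_M22, show (443520 : ℕ) = 5 * 88704 by norm_num,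
    Nat.factorization_mul (by norm_num) (by norm_num), Finsupp.add_apply,
    Nat.Prime.factorization_self (by norm_num), Nat.factorization_eq_zero_of_not_dvd (by norm_num)]

theorem local_seven {s : Spor.M22} (hs : orderOf s = 7) : Local 7 2 3 ![1, 2, 4] 3 s := by
  obtain ⟨s₀, h0, L⟩ := seven_exists
  refine L.transport (by norm_num) ?_ h0 hs
  rw [CfsgLib.Mathieu.card_M22, show (443520 : ℕ) = 7 * 63360 by norm_num,
    Nat.factorization_mul (by norm_num) (by norm_num), Finsupp.add_apply,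
    Nat.Prime.factorization_self (by norm_num), Nat.factorization_eq_zero_of_not_dvd (by norm_num)]

theorem pow_fn_injective {G : Type*} [Group G] {s : G} {p d : ℕ} (hs : orderOf s = p)
    {f : Fin d → ℕ} (hlt : ∀ i, f i < p) (hf : Function.Injective f) :
    Function.Injective fun i => s ^ f i := fun i j h =>
  hf (pow_injOn_Iio_orderOf (hs ▸ hlt i) (hs ▸ hlt j) h)

theorem step_iterate {G : Type*} [Group G] {s g : G} {r : ℕ} (h : g * s * g⁻¹ = s ^ r) :
    ∀ m : ℕ, g ^ m * s * (g ^ m)⁻¹ = s ^ r ^ m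
  | 0 => by simp
  | m + 1 => by
    rw [pow_succ' g, show g * g ^ m * s * (g * g ^ m)⁻¹ = g * (g ^ m * s * (g ^ m)⁻¹) * g⁻¹ by
      group, step_iterate h m, ← conj_pow, h, ← pow_mul, pow_succ' r]

theorem five_exists_pow {s : Spor.M22} (hs : orderOf s = 5) (i : Fin 4) :
    ∃ g : Spor.M22, g * s * g⁻¹ = s ^ (![1, 2, 3, 4] : Fin 4 → ℕ) i := by
  obtain ⟨g, -, hg⟩ := (local_five hs).step
  have h5 : s ^ 5 = 1 := hs ▸ pow_orderOf_eq_one s
  have h := step_iterate hg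
  fin_cases i
  · exact ⟨g ^ 0, h 0⟩
  · exact ⟨g ^ 1, h 1⟩
  · refine ⟨g ^ 3, (h 3).trans ?_⟩
    show s ^ 8 = s ^ 3
    rw [pow_eq_pow_mod 8 h5]
  · exact ⟨g ^ 2, h 2⟩

theorem seven_exists_pow {s : Spor.M22} (hs : orderOf s = 7) (i : Fin 3) :
    ∃ g : Spor.M22, g * s * g⁻¹ = s ^ (![1, 2, 4] : Fin 3 → ℕ) i := by
  obtain ⟨g, -, hg⟩ := (local_seven hs).step
  have h := step_iterate hg
  fin_cases i
  · exact ⟨g ^ 0, h 0⟩
  · exact ⟨g ^ 1, h 1⟩
  · exact ⟨g ^ 2, h 2⟩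

theorem five_cent {s : Spor.M22} (hs : orderOf s = 5) :
    Nat.card (Subgroup.centralizer ({s} : Set Spor.M22)) = 5 := by
  rw [card_centralizer_of_forall (local_five hs).cent, hs]

theorem seven_cent {s : Spor.M22} (hs : orderOf s = 7) :
    Nat.card (Subgroup.centralizer ({s} : Set Spor.M22)) = 7 := by
  rw [card_centralizer_of_forall (local_seven hs).cent, hs]

theorem five_square {s : Spor.M22} (hs : orderOf s = 5) :
    ∃ g : Spor.M22, orderOf g = 4 ∧ g * s * g⁻¹ = s ^ 2 :=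
  (local_five hs).step

theorem seven_square {s : Spor.M22} (hs : orderOf s = 7) :
    ∃ g : Spor.M22, orderOf g = 3 ∧ g * s * g⁻¹ = s ^ 2 :=
  (local_seven hs).step

theorem five_outer {s : Spor.M22} (hs : orderOf s = 5) :
    ∃ τ : MulAut Spor.M22, τ ∉ (MulAut.conj : Spor.M22 →* MulAut Spor.M22).range ∧ τ s = s :=
  (local_five hs).outer

theorem seven_outer {s : Spor.M22} (hs : orderOf s = 7) :
    ∃ τ : MulAut Spor.M22, τ ∉ (MulAut.conj : Spor.M22 →* MulAut Spor.M22).range ∧ τ s = s :=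
  (local_seven hs).outer

theorem seven_not_inverted {s : Spor.M22} (hs : orderOf s = 7) (x : Spor.M22) :
    x * s * x⁻¹ ≠ s⁻¹ := by
  intro h
  obtain ⟨i, hi⟩ := (local_seven hs).norm x (h ▸ Subgroup.inv_mem _ (Subgroup.mem_zpowers s))
  rw [h, inv_eq_iff_mul_eq_one, ← pow_succ'] at hi
  have := orderOf_dvd_of_pow_eq_one hi
  rw [hs] at this
  revert this
  fin_cases i <;> decide

theorem five_norm {s : Spor.M22} (hs : orderOf s = 5) :
    Nat.card (Subgroup.normalizer (Subgroup.zpowers s : Set Spor.M22)) = 20 := by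
  rw [card_normalizer_zpowers _ (pow_fn_injective hs (by decide) (by decide))
    (five_exists_pow hs) (local_five hs).norm, five_cent hs]

theorem seven_norm {s : Spor.M22} (hs : orderOf s = 7) :
    Nat.card (Subgroup.normalizer (Subgroup.zpowers s : Set Spor.M22)) = 21 := by
  rw [card_normalizer_zpowers _ (pow_fn_injective hs (by decide) (by decide))
    (seven_exists_pow hs) (local_seven hs).norm, seven_cent hs]

theorem five_autCent {s : Spor.M22} (hs : orderOf s = 5) :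
    Nat.card (Subgroup.centralizer ({MulAut.conj s} : Set (MulAut Spor.M22))) = 10 := by
  obtain ⟨τ, hτ, hτs⟩ := five_outer hs
  rw [card_centralizer_aut center_M22 inn_index_M22 hτ hτs, five_cent hs]

theorem seven_autCent {s : Spor.M22} (hs : orderOf s = 7) :
    Nat.card (Subgroup.centralizer ({MulAut.conj s} : Set (MulAut Spor.M22))) = 14 := by
  obtain ⟨τ, hτ, hτs⟩ := seven_outer hs
  rw [card_centralizer_aut center_M22 inn_index_M22 hτ hτs, seven_cent hs]

theorem five_autNorm {s : Spor.M22} (hs : orderOf s = 5) :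
    Nat.card (Subgroup.normalizer
      (Subgroup.zpowers (MulAut.conj s) : Set (MulAut Spor.M22))) = 40 := by
  obtain ⟨τ, hτ, hτs⟩ := five_outer hs
  rw [card_normalizer_aut center_M22 inn_index_M22 hτ hτs _
    (pow_fn_injective hs (by decide) (by decide)) (five_exists_pow hs) (local_five hs).norm,
    five_cent hs]

theorem seven_autNorm {s : Spor.M22} (hs : orderOf s = 7) :
    Nat.card (Subgroup.normalizer
      (Subgroup.zpowers (MulAut.conj s) : Set (MulAut Spor.M22))) = 42 := by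
  obtain ⟨τ, hτ, hτs⟩ := seven_outer hs
  rw [card_normalizer_aut center_M22 inn_index_M22 hτ hτs _
    (pow_fn_injective hs (by decide) (by decide)) (seven_exists_pow hs) (local_seven hs).norm,
    seven_cent hs]

end CfsgLib.J4Facts21
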